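import Mathlib
import Cfsg.Agent.Lib.Helper2.ES2

/-!
# Elementary abelian subgroups of extraspecial 2-groups

For `E` with centre of order 2, central commutators and `|E| = 2 ^ (2 n + 1)`:
every elementary abelian subgroup has order at most `2 ^ (n + 1)`; there is one of order at
least `2 ^ (n + 1)` iff `E` has `2 ^ (2 n) + 2 ^ n` solutions of `g ^ 2 = 1`; otherwise
there is one of order at least `2 ^ n`.
-/

set_option linter.unusedSectionVars false

namespace Cfsg.Agent.Lib.Helper2.ES2

open Subgroup Cfsg.Agent.Lib.Helper2 Cfsg.Agent.Lib.Helper2.ESL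
open scoped commutatorElement

universe u

section Rank

variable {E : Type*} [Group E] [Finite E]

theorem exists_D8_partner (hZ : Nat.card (center E) = 2)
    (hc : ∀ a b : E, ⁅a, b⁆ ∈ center E) (t : E) (ht : t ^ 2 = 1) (htc : t ∉ center E) :
    ∃ y : E, y ^ 2 = 1 ∧ ⁅t, y⁆ ≠ 1 := by
  rw [Subgroup.mem_center_iff] at htc
  simp only [not_forall] at htc
  obtain ⟨w, hw⟩ := htc
  have htw : ⁅t, w⁆ ≠ 1 := by
    intro h; exact hw (commutatorElement_eq_one_iff_commute.mp h).eq.symm
  rcases sq_eq_one_or hZ hc (hc t w) htw w with h | h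
  · exact ⟨w, h, htw⟩
  · refine ⟨t * w, ?_, ?_⟩
    · rw [mul_sq hZ hc, ht, h, one_mul, ← pow_two, central_sq hZ (hc t w)]
    · intro h2
      have h3 : Commute t (t * w) := commutatorElement_eq_one_iff_commute.mp h2
      apply hw
      have h4 : t * (t * w) = t * w * t := h3.eq
      rw [mul_assoc] at h4
      exact (mul_left_cancel h4).symm

theorem exists_D8_or_small (hZ : Nat.card (center E) = 2)
    (hc : ∀ a b : E, ⁅a, b⁆ ∈ center E) (hnab : ∃ a b : E, ⁅a, b⁆ ≠ 1) :
    (∃ x y : E, x ^ 2 = 1 ∧ y ^ 2 = 1 ∧ ⁅x, y⁆ ≠ 1) ∨ (Nat.card E = 8 ∧ invCount E = 2) := by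
  rcases exists_pair hZ hc hnab with h | ⟨x, y, hxy, hx, hy⟩
  · exact Or.inl h
  · by_cases hsmall : ∀ u ∈ pairKer hc x y, u ∈ center E
    · right
      obtain ⟨h8, hB2⟩ := card_eq_eight_of_pairKer_le hZ hc x y hxy hsmall
      have hq := count_Q8 hZ hc x y hxy hx hy
      rw [invCount_of_card_two hB2, hB2] at hq
      exact ⟨h8, by omega⟩
    · left
      have hex : ∃ u ∈ pairKer hc x y, u ∉ center E := by
        by_contra h
        exact hsmall (fun u hu => by by_contra h2; exact h ⟨u, hu, h2⟩)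
      obtain ⟨u, hu, huc⟩ := hex
      exact exists_D8_of_Q8 hZ hc x y hxy hx u hu huc

/-- From a non-central elementary abelian subgroup of `E` to one of half the size in the
centraliser of a dihedral pair. -/
theorem descend (hZ : Nat.card (center E) = 2) (hc : ∀ a b : E, ⁅a, b⁆ ∈ center E)
    (A : Subgroup E) [IsMulCommutative A] (hA2 : ∀ a ∈ A, a ^ 2 = 1) (hAZ : ¬ A ≤ center E) :
    ∃ x y : E, x ^ 2 = 1 ∧ y ^ 2 = 1 ∧ ⁅x, y⁆ ≠ 1 ∧ ∃ A₂ : Subgroup (pairKer hc x y),
      IsMulCommutative A₂ ∧ (∀ a ∈ A₂, a ^ 2 = 1) ∧ Nat.card A ≤ 2 * Nat.card A₂ := by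
  obtain ⟨t, htA, htc⟩ := SetLike.not_le_iff_exists.mp hAZ
  obtain ⟨y, hy, hty⟩ := exists_D8_partner hZ hc t (hA2 t htA) htc
  refine ⟨t, y, hA2 t htA, hy, hty, ?_⟩
  have hle : A ⊓ (commHomL hc y).ker ≤ pairKer hc t y := by
    intro a ha
    rw [mem_pairKer]
    exact ⟨setLike_mul_comm ha.1 htA, (commHomL_eq_one_iff hc y a).mp ha.2⟩
  have hcomm : IsMulCommutative ↥(A ⊓ (commHomL hc y).ker) :=
    IsMulCommutative.of_setLike_mul_comm fun a ha b hb => setLike_mul_comm ha.1 hb.1
  refine ⟨(A ⊓ (commHomL hc y).ker).subgroupOf (pairKer hc t y), inferInstance, ?_, ?_⟩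
  · intro a ha
    rw [Subgroup.mem_subgroupOf] at ha
    apply Subtype.ext
    rw [Subgroup.coe_pow, hA2 _ ha.1, Subgroup.coe_one]
  · have e1 : Nat.card ((A ⊓ (commHomL hc y).ker).subgroupOf (pairKer hc t y)) =
        Nat.card ↥(A ⊓ (commHomL hc y).ker) :=
      Nat.card_congr (Subgroup.subgroupOfEquivOfLe hle).toEquiv
    have e2 : Nat.card ((A ⊓ (commHomL hc y).ker).subgroupOf A) =
        Nat.card ↥(A ⊓ (commHomL hc y).ker) :=
      Nat.card_congr (Subgroup.subgroupOfEquivOfLe inf_le_left).toEquiv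
    have e3 := Subgroup.card_mul_index ((A ⊓ (commHomL hc y).ker).subgroupOf A)
    have e4 : ((A ⊓ (commHomL hc y).ker).subgroupOf A).index ≤ 2 := by
      show (A ⊓ (commHomL hc y).ker).relIndex A ≤ 2
      rw [inf_comm, Subgroup.inf_relIndex_right, Subgroup.relIndex_ker, ← hZ]
      exact Subgroup.card_le_card_group _
    rw [e1, ← e2, ← e3]
    exact Nat.mul_le_mul_left _ e4 |>.trans (le_of_eq (mul_comm _ _))

/-- From an elementary abelian subgroup of the centraliser of a pair `(x, y)` with `x ^ 2 = 1`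
to one of at least twice the size in `E`. -/
theorem ascend (hc : ∀ a b : E, ⁅a, b⁆ ∈ center E)
    (x y : E) (hx : x ^ 2 = 1) (hxy : ⁅x, y⁆ ≠ 1) (A₂ : Subgroup (pairKer hc x y))
    [IsMulCommutative A₂] (h2 : ∀ a ∈ A₂, a ^ 2 = 1) :
    ∃ A : Subgroup E, IsMulCommutative A ∧ (∀ a ∈ A, a ^ 2 = 1) ∧
      2 * Nat.card A₂ ≤ Nat.card A := by
  have hA₁ : ∀ a ∈ A₂.map (pairKer hc x y).subtype, a ∈ pairKer hc x y ∧ a ^ 2 = 1 := by
    rintro a ⟨b, hb, rfl⟩
    refine ⟨b.2, ?_⟩
    have := congrArg Subtype.val (h2 b hb)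
    simpa using this
  have hcommS : ∀ a ∈ ((A₂.map (pairKer hc x y).subtype : Subgroup E) : Set E) ∪ {x},
      ∀ b ∈ ((A₂.map (pairKer hc x y).subtype : Subgroup E) : Set E) ∪ {x}, a * b = b * a := by
    intro a ha b hb
    rcases ha with ha | ha <;> rcases hb with hb | hb
    · exact setLike_mul_comm ha hb
    · rw [Set.mem_singleton_iff] at hb
      subst hb
      exact ((mem_pairKer hc _ y a).mp (hA₁ a ha).1).1.eq
    · rw [Set.mem_singleton_iff] at ha
      subst ha
      exact ((mem_pairKer hc _ y b).mp (hA₁ b hb).1).1.eq.symm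
    · rw [Set.mem_singleton_iff] at ha hb
      rw [ha, hb]
  have hcomm := Subgroup.isMulCommutative_closure hcommS
  refine ⟨closure (((A₂.map (pairKer hc x y).subtype : Subgroup E) : Set E) ∪ {x}), hcomm, ?_, ?_⟩
  · intro a ha
    induction ha using Subgroup.closure_induction with
    | mem a ha =>
      rcases ha with ha | ha
      · exact (hA₁ a ha).2
      · rw [Set.mem_singleton_iff] at ha
        rw [ha, hx]
    | one => simp
    | mul a b ha hb iha ihb =>
      have hab : Commute a b := setLike_mul_comm ha hb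
      rw [hab.mul_pow, iha, ihb, one_mul]
    | inv a ha iha => rw [inv_pow, iha, inv_one]
  · have hle : A₂.map (pairKer hc x y).subtype ≤
        closure (((A₂.map (pairKer hc x y).subtype : Subgroup E) : Set E) ∪ {x}) := by
      intro a ha
      exact subset_closure (Or.inl ha)
    have hxA : x ∈ closure (((A₂.map (pairKer hc x y).subtype : Subgroup E) : Set E) ∪ {x}) :=
      subset_closure (Or.inr rfl)
    have hxA₁ : x ∉ A₂.map (pairKer hc x y).subtype := by
      intro h
      have := ((mem_pairKer hc x y x).mp (hA₁ x h).1).2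
      exact hxy (commutatorElement_eq_one_iff_commute.mpr this)
    have hcard : Nat.card (A₂.map (pairKer hc x y).subtype) = Nat.card A₂ :=
      Subgroup.card_map_of_injective (Subgroup.subtype_injective _)
    have hdvd := Subgroup.card_dvd_of_le hle
    have hlt : Nat.card (A₂.map (pairKer hc x y).subtype) <
        Nat.card (closure (((A₂.map (pairKer hc x y).subtype : Subgroup E) : Set E) ∪ {x})) := by
      by_contra hge
      have := Subgroup.eq_of_le_of_card_ge hle (not_lt.mp hge)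
      exact hxA₁ (this ▸ hxA)
    rw [← hcard]
    obtain ⟨k, hk⟩ := hdvd
    rw [hk] at hlt ⊢
    have hpos := Nat.card_pos (α := A₂.map (pairKer hc x y).subtype)
    have hk2 : 2 ≤ k := by
      by_contra hk2
      have : k ≤ 1 := by omega
      have := Nat.mul_le_mul_left (Nat.card (A₂.map (pairKer hc x y).subtype)) this
      omega
    calc 2 * Nat.card (A₂.map (pairKer hc x y).subtype)
        = Nat.card (A₂.map (pairKer hc x y).subtype) * 2 := mul_comm _ _
      _ ≤ Nat.card (A₂.map (pairKer hc x y).subtype) * k := Nat.mul_le_mul_left _ hk2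

end Rank

/-- Elementary abelian subgroups of extraspecial 2-groups, by induction on the width. -/
theorem rank_aux : ∀ (n : ℕ) (E : Type u) [Group E] [Finite E], Nat.card (center E) = 2 →
    (∀ a b : E, ⁅a, b⁆ ∈ center E) → Nat.card E = 2 ^ (2 * n + 1) →
    (∀ A : Subgroup E, IsMulCommutative A → (∀ a ∈ A, a ^ 2 = 1) → Nat.card A ≤ 2 ^ (n + 1)) ∧
    (invCount E = 2 ^ (2 * n) + 2 ^ n → ∃ A : Subgroup E, IsMulCommutative A ∧
      (∀ a ∈ A, a ^ 2 = 1) ∧ 2 ^ (n + 1) ≤ Nat.card A) ∧
    ((∃ A : Subgroup E, IsMulCommutative A ∧ (∀ a ∈ A, a ^ 2 = 1) ∧ 2 ^ (n + 1) ≤ Nat.card A) →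
      invCount E = 2 ^ (2 * n) + 2 ^ n) ∧
    (invCount E + 2 ^ n = 2 ^ (2 * n) → ∃ A : Subgroup E, IsMulCommutative A ∧
      (∀ a ∈ A, a ^ 2 = 1) ∧ 2 ^ n ≤ Nat.card A) := by
  intro n
  induction n with
  | zero =>
    intro E _ _ hZ hc hcard
    have hE : Nat.card E = 2 := by simpa using hcard
    refine ⟨?_, ?_, ?_, ?_⟩
    · intro A _ _
      have := Subgroup.card_le_card_group A
      rw [hE] at this
      simpa using this
    · intro _
      refine ⟨⊤, ?_, ?_, ?_⟩
      · exact IsMulCommutative.of_setLike_mul_comm fun a _ b _ =>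
          (commutatorElement_eq_one_iff_commute.mp (abelian_of_card_eq_two hZ hE a b)).eq
      · intro a _
        rw [← hE]; exact pow_card_eq_one'
      · rw [Subgroup.card_top, hE]; norm_num
    · intro _
      rw [invCount_of_card_two hE]; norm_num
    · intro _
      refine ⟨⊥, ?_, ?_, ?_⟩
      · exact IsMulCommutative.of_setLike_mul_comm fun a ha b hb => by
          rw [Subgroup.mem_bot] at ha hb
          rw [ha, hb]
      · intro a ha
        rw [Subgroup.mem_bot] at ha
        rw [ha, one_pow]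
      · simp
  | succ n ih =>
    intro E _ _ hZ hc hcard
    have eA : 2 ^ (n + 1 + 1) = 4 * 2 ^ n := by ring
    have eB : 2 ^ (n + 1) = 2 * 2 ^ n := by ring
    have eC : 2 ^ (2 * (n + 1) + 1) = 8 * 2 ^ (2 * n) := by ring
    have eD : 2 ^ (2 * (n + 1)) = 4 * 2 ^ (2 * n) := by ring
    have eE : 2 ^ (2 * n + 1) = 2 * 2 ^ (2 * n) := by ring
    have hpa : 0 < 2 ^ n := Nat.pos_of_ne_zero (by positivity)
    have hpb : 0 < 2 ^ (2 * n) := Nat.pos_of_ne_zero (by positivity)
    rw [eC] at hcard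
    have hnab : ∃ a b : E, ⁅a, b⁆ ≠ 1 := by
      by_contra h
      have h2 := card_eq_two_of_abelian hZ (by intro a b; by_contra h3; exact h ⟨a, b, h3⟩)
      omega
    -- the centraliser of a non-commuting pair
    have hB : ∀ x y : E, ⁅x, y⁆ ≠ 1 → Nat.card (pairKer hc x y) = 2 ^ (2 * n + 1) := by
      intro x y hxy
      have h1 := card_pairKer hZ hc x y hxy
      rw [eE]
      omega
    have hih := fun (x y : E) (hxy : ⁅x, y⁆ ≠ 1) => ih (pairKer hc x y)
      (card_center_pairKer hZ hc x y hxy) (commutator_mem_center_pairKer hZ hc x y hxy)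
      (hB x y hxy)
    refine ⟨?_, ?_, ?_, ?_⟩
    · intro A _ hA2
      rw [eA]
      by_cases hAZ : A ≤ center E
      · have := Subgroup.card_le_of_le hAZ
        omega
      · obtain ⟨x, y, hx, hy, hxy, A₂, hA₂c, hA₂2, hle⟩ := descend hZ hc A hA2 hAZ
        have := (hih x y hxy).1 A₂ hA₂c hA₂2
        rw [eB] at this
        omega
    · intro hplus
      rw [eD, eB] at hplus
      rcases exists_D8_or_small hZ hc hnab with ⟨x, y, hx, hy, hxy⟩ | ⟨h8, h2⟩
      · have hcount := count_D8 hZ hc x y hx hy hxy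
        have hBc := hB x y hxy
        rw [eE] at hBc
        obtain ⟨A₂, hA₂c, hA₂2, hle⟩ := (hih x y hxy).2.1 (by omega)
        obtain ⟨A, hAc, hA2, hle2⟩ := ascend hc x y hx hxy A₂ hA₂2
        refine ⟨A, hAc, hA2, ?_⟩
        rw [eA]
        rw [eB] at hle
        omega
      · omega
    · rintro ⟨A, hAc, hA2, hle⟩
      rw [eA] at hle
      rw [eD, eB]
      have hAZ : ¬ A ≤ center E := by
        intro h
        have := Subgroup.card_le_of_le h
        omega
      obtain ⟨x, y, hx, hy, hxy, A₂, hA₂c, hA₂2, hle2⟩ := descend hZ hc A hA2 hAZ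
      have hcount := count_D8 hZ hc x y hx hy hxy
      have hBc := hB x y hxy
      rw [eE] at hBc
      have := (hih x y hxy).2.2.1 ⟨A₂, hA₂c, hA₂2, by rw [eB]; omega⟩
      omega
    · intro hminus
      rw [eD, eB] at hminus
      rcases exists_D8_or_small hZ hc hnab with ⟨x, y, hx, hy, hxy⟩ | ⟨h8, h2⟩
      · have hcount := count_D8 hZ hc x y hx hy hxy
        have hBc := hB x y hxy
        rw [eE] at hBc
        obtain ⟨A₂, hA₂c, hA₂2, hle⟩ := (hih x y hxy).2.2.2 (by omega)
        obtain ⟨A, hAc, hA2, hle2⟩ := ascend hc x y hx hxy A₂ hA₂2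
        refine ⟨A, hAc, hA2, ?_⟩
        rw [eB]
        omega
      · refine ⟨center E, ?_, ?_, ?_⟩
        · exact IsMulCommutative.of_setLike_mul_comm fun a ha b _ =>
            (Subgroup.mem_center_iff.mp ha b).symm
        · intro a ha
          exact central_sq hZ ha
        · rw [eB, hZ]
          omega

end Cfsg.Agent.Lib.Helper2.ES2
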