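import Mathlib
import Cfsg.Agent.Lib.Helper2.ES2Rank

/-!
# Existence of extraspecial 2-groups of both types

`XS n κ` is the set `ZMod 2 × (Fin n → ZMod 2 × ZMod 2)` with the multiplication
`(c, v) * (c', v') = (c + c' + β(v, v'), v + v')`, where `β` is the bilinear form
`Σ i, (v i).2 * (v' i).1 + κ i * ((v i).1 * (v' i).1 + (v i).2 * (v' i).2)`: the central product
of `n` groups of order 8, the `i`-th being dihedral if `κ i = 0` and quaternion if `κ i = 1`.
-/

namespace Cfsg.Agent.Lib.Helper2.ES2X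

open Subgroup Cfsg.Agent.Lib.Helper2 Cfsg.Agent.Lib.Helper2.ESL Cfsg.Agent.Lib.Helper2.ES2
open scoped commutatorElement

variable {n : ℕ} {κ : Fin n → ZMod 2}

/-- the cocycle -/
def beta (κ : Fin n → ZMod 2) (v w : Fin n → ZMod 2 × ZMod 2) : ZMod 2 :=
  ∑ i, ((v i).2 * (w i).1 + κ i * ((v i).1 * (w i).1 + (v i).2 * (w i).2))

theorem beta_add_left (u v w : Fin n → ZMod 2 × ZMod 2) :
    beta κ (u + v) w = beta κ u w + beta κ v w := by
  unfold beta
  rw [← Finset.sum_add_distrib]
  apply Finset.sum_congr rfl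
  intro i _
  simp only [Pi.add_apply, Prod.fst_add, Prod.snd_add]
  ring

theorem beta_add_right (u v w : Fin n → ZMod 2 × ZMod 2) :
    beta κ u (v + w) = beta κ u v + beta κ u w := by
  unfold beta
  rw [← Finset.sum_add_distrib]
  apply Finset.sum_congr rfl
  intro i _
  simp only [Pi.add_apply, Prod.fst_add, Prod.snd_add]
  ring

theorem beta_zero_left (w : Fin n → ZMod 2 × ZMod 2) : beta κ 0 w = 0 := by
  unfold beta; simp

theorem beta_zero_right (v : Fin n → ZMod 2 × ZMod 2) : beta κ v 0 = 0 := by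
  unfold beta; simp

theorem beta_single_right (v : Fin n → ZMod 2 × ZMod 2) (i : Fin n) (t : ZMod 2 × ZMod 2) :
    beta κ v (Pi.single i t) = (v i).2 * t.1 + κ i * ((v i).1 * t.1 + (v i).2 * t.2) := by
  unfold beta
  rw [Finset.sum_eq_single i]
  · simp
  · intro j _ hj
    simp [Pi.single_eq_of_ne hj]
  · intro h; exact absurd (Finset.mem_univ i) h

theorem beta_single_left (v : Fin n → ZMod 2 × ZMod 2) (i : Fin n) (t : ZMod 2 × ZMod 2) :
    beta κ (Pi.single i t) v = t.2 * (v i).1 + κ i * (t.1 * (v i).1 + t.2 * (v i).2) := by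
  unfold beta
  rw [Finset.sum_eq_single i]
  · simp
  · intro j _ hj
    simp [Pi.single_eq_of_ne hj]
  · intro h; exact absurd (Finset.mem_univ i) h

theorem two_eq_zero' : (2 : ZMod 2) = 0 := by decide

theorem add_self_vec (v : Fin n → ZMod 2 × ZMod 2) : v + v = 0 := by
  funext i
  exact Prod.ext (CharTwo.add_self_eq_zero _) (CharTwo.add_self_eq_zero _)

/-- the underlying type -/
def XS (n : ℕ) (_κ : Fin n → ZMod 2) : Type := ZMod 2 × (Fin n → ZMod 2 × ZMod 2)

/-- constructor -/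
def mk (c : ZMod 2) (v : Fin n → ZMod 2 × ZMod 2) : XS n κ := (c, v)

/-- first component -/
def fs (a : XS n κ) : ZMod 2 := Prod.fst a

/-- second component -/
def sn (a : XS n κ) : Fin n → ZMod 2 × ZMod 2 := Prod.snd a

theorem fs_mk (c : ZMod 2) (v : Fin n → ZMod 2 × ZMod 2) : fs (mk c v : XS n κ) = c := rfl

theorem sn_mk (c : ZMod 2) (v : Fin n → ZMod 2 × ZMod 2) : sn (mk c v : XS n κ) = v := rfl

theorem ext' {a b : XS n κ} (h1 : fs a = fs b) (h2 : sn a = sn b) : a = b := Prod.ext h1 h2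

instance instMulXS : Mul (XS n κ) :=
  ⟨fun a b => mk (fs a + fs b + beta κ (sn a) (sn b)) (sn a + sn b)⟩

instance instOneXS : One (XS n κ) := ⟨mk 0 0⟩

instance instInvXS : Inv (XS n κ) := ⟨fun a => mk (fs a + beta κ (sn a) (sn a)) (sn a)⟩

theorem fs_mul (a b : XS n κ) : fs (a * b) = fs a + fs b + beta κ (sn a) (sn b) := rfl

theorem sn_mul (a b : XS n κ) : sn (a * b) = sn a + sn b := rfl

theorem fs_one : fs (1 : XS n κ) = 0 := rfl

theorem sn_one : sn (1 : XS n κ) = 0 := rfl

theorem fs_inv (a : XS n κ) : fs a⁻¹ = fs a + beta κ (sn a) (sn a) := rfl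

theorem sn_inv (a : XS n κ) : sn a⁻¹ = sn a := rfl

instance instGroupXS : Group (XS n κ) := Group.ofLeftAxioms
  (by
    intro a b c
    apply ext'
    · simp only [fs_mul, sn_mul, beta_add_left, beta_add_right]; ring
    · simp only [sn_mul]; exact add_assoc _ _ _)
  (by
    intro a
    apply ext'
    · simp only [fs_mul, fs_one, sn_one, beta_zero_left]; ring
    · simp only [sn_mul, sn_one]; exact zero_add _)
  (by
    intro a
    apply ext'
    · simp only [fs_mul, fs_inv, sn_inv, fs_one]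
      linear_combination (fs a + beta κ (sn a) (sn a)) * two_eq_zero'
    · simp only [sn_mul, sn_inv, sn_one]; exact add_self_vec _)

instance instFiniteXS : Finite (XS n κ) :=
  inferInstanceAs (Finite (ZMod 2 × (Fin n → ZMod 2 × ZMod 2)))

theorem card_XS : Nat.card (XS n κ) = 2 ^ (2 * n + 1) := by
  show Nat.card (ZMod 2 × (Fin n → ZMod 2 × ZMod 2)) = 2 ^ (2 * n + 1)
  rw [Nat.card_prod, Nat.card_fun, Nat.card_prod, Nat.card_zmod, Nat.card_fin]
  rw [pow_succ, pow_mul]
  ring

theorem sq_eq (a : XS n κ) : a ^ 2 = mk (beta κ (sn a) (sn a)) 0 := by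
  rw [pow_two]
  apply ext'
  · rw [fs_mul, fs_mk]
    linear_combination (fs a) * two_eq_zero'
  · rw [sn_mul, sn_mk]; exact add_self_vec _

theorem commute_iff (a b : XS n κ) :
    a * b = b * a ↔ beta κ (sn a) (sn b) + beta κ (sn b) (sn a) = 0 := by
  constructor
  · intro h
    have h1 := congrArg fs h
    rw [fs_mul, fs_mul] at h1
    linear_combination h1 + (beta κ (sn b) (sn a)) * two_eq_zero'
  · intro h
    apply ext'
    · rw [fs_mul, fs_mul]
      linear_combination h - (beta κ (sn b) (sn a)) * two_eq_zero'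
    · rw [sn_mul, sn_mul]; exact add_comm _ _

theorem sn_commutator (a b : XS n κ) : sn ⁅a, b⁆ = 0 := by
  rw [commutatorElement_def]
  simp only [sn_mul, sn_inv]
  rw [add_assoc, add_add_add_comm, add_self_vec, add_self_vec, add_zero]

theorem mem_center_iff' (a : XS n κ) : a ∈ center (XS n κ) ↔ sn a = 0 := by
  constructor
  · intro ha
    rw [Subgroup.mem_center_iff] at ha
    funext i
    have h1 := (commute_iff _ _).mp (ha (mk 0 (Pi.single i (1, 0))))
    have h2 := (commute_iff _ _).mp (ha (mk 0 (Pi.single i (0, 1))))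
    rw [sn_mk, beta_single_left, beta_single_right] at h1 h2
    simp only [mul_one, mul_zero, zero_mul, one_mul, add_zero, zero_add] at h1 h2
    apply Prod.ext
    · show (sn a i).1 = 0
      linear_combination h2 - (κ i * (sn a i).2) * two_eq_zero'
    · show (sn a i).2 = 0
      linear_combination h1 - (κ i * (sn a i).1) * two_eq_zero'
  · intro ha
    rw [Subgroup.mem_center_iff]
    intro g
    rw [commute_iff, ha, beta_zero_left, beta_zero_right, add_zero]

theorem card_center : Nat.card (center (XS n κ)) = 2 := by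
  have e : ZMod 2 ≃ center (XS n κ) :=
    { toFun := fun c => ⟨mk c 0, (mem_center_iff' _).mpr rfl⟩
      invFun := fun a => fs a.1
      left_inv := fun c => rfl
      right_inv := fun a => Subtype.ext (ext' rfl ((mem_center_iff' a.1).mp a.2).symm) }
  rw [← Nat.card_congr e, Nat.card_zmod]

theorem commutator_mem_center (a b : XS n κ) : ⁅a, b⁆ ∈ center (XS n κ) :=
  (mem_center_iff' _).mpr (sn_commutator a b)

/-- the elementary abelian subgroup -/
def elemAb (κ : Fin n → ZMod 2) : Subgroup (XS n κ) where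
  carrier := {a | ∀ i, (sn a i).2 = 0 ∧ κ i * (sn a i).1 = 0}
  mul_mem' := by
    intro a b ha hb i
    rw [sn_mul]
    simp only [Pi.add_apply, Prod.fst_add, Prod.snd_add]
    rw [(ha i).1, (hb i).1, mul_add, (ha i).2, (hb i).2]
    simp
  one_mem' := by
    intro i
    rw [sn_one]
    simp
  inv_mem' := by
    intro a ha i
    rw [sn_inv]
    exact ha i

theorem mem_elemAb (a : XS n κ) :
    a ∈ elemAb κ ↔ ∀ i, (sn a i).2 = 0 ∧ κ i * (sn a i).1 = 0 := Iff.rfl

theorem beta_eq_zero_of_mem {a : XS n κ} (ha : a ∈ elemAb κ) (w : Fin n → ZMod 2 × ZMod 2) :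
    beta κ (sn a) w = 0 := by
  unfold beta
  apply Finset.sum_eq_zero
  intro i _
  have h1 := (ha i).1
  have h2 := (ha i).2
  rw [h1]
  linear_combination (w i).1 * h2

instance elemAb_comm : IsMulCommutative (elemAb κ) :=
  IsMulCommutative.of_setLike_mul_comm fun a ha b hb => by
    rw [commute_iff, beta_eq_zero_of_mem ha, beta_eq_zero_of_mem hb, add_zero]

theorem elemAb_sq (a : XS n κ) (ha : a ∈ elemAb κ) : a ^ 2 = 1 := by
  rw [sq_eq, beta_eq_zero_of_mem ha]
  rfl

/-- the standard generators -/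
def ex (i : Fin n) : XS n κ := mk 0 (Pi.single i (1, 0))

/-- the standard generators -/
def ey (i : Fin n) : XS n κ := mk 0 (Pi.single i (0, 1))

theorem commute_ex_iff (a : XS n κ) (i : Fin n) :
    Commute a (ex i) ↔ (sn a i).2 = 0 := by
  show a * ex i = ex i * a ↔ _
  rw [commute_iff]
  show beta κ (sn a) (Pi.single i (1, 0)) + beta κ (Pi.single i (1, 0)) (sn a) = 0 ↔ _
  rw [beta_single_left, beta_single_right]
  simp only [mul_one, mul_zero, zero_mul, one_mul, add_zero, zero_add]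
  constructor
  · intro h
    linear_combination h - (κ i * (sn a i).1) * two_eq_zero'
  · intro h
    linear_combination h + (κ i * (sn a i).1) * two_eq_zero'

theorem commute_ey_iff (a : XS n κ) (i : Fin n) :
    Commute a (ey i) ↔ (sn a i).1 = 0 := by
  show a * ey i = ey i * a ↔ _
  rw [commute_iff]
  show beta κ (sn a) (Pi.single i (0, 1)) + beta κ (Pi.single i (0, 1)) (sn a) = 0 ↔ _
  rw [beta_single_left, beta_single_right]
  simp only [mul_one, mul_zero, zero_mul, one_mul, zero_add]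
  constructor
  · intro h
    linear_combination h - (κ i * (sn a i).2) * two_eq_zero'
  · intro h
    linear_combination h + (κ i * (sn a i).2) * two_eq_zero'

theorem commutator_ex_ey_ne (i : Fin n) : ⁅(ex i : XS n κ), (ey i : XS n κ)⁆ ≠ 1 := by
  intro h
  have h1 : Commute (ex i : XS n κ) (ey i) := commutatorElement_eq_one_iff_commute.mp h
  have h2 := (commute_ey_iff _ i).mp h1
  have h3 : (sn (ex i : XS n κ) i).1 = 1 := by
    show ((Pi.single i ((1 : ZMod 2), (0 : ZMod 2)) : Fin n → ZMod 2 × ZMod 2) i).1 = 1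
    rw [Pi.single_eq_same]
  rw [h3] at h2
  exact absurd h2 (by decide)

theorem mk_one_ne_one : (mk 1 0 : XS n κ) ≠ 1 := by
  intro h
  have h1 := congrArg fs h
  rw [fs_mk, fs_one] at h1
  exact absurd h1 (by decide)

theorem sq_ex (i : Fin n) : (ex i : XS n κ) ^ 2 = mk (κ i) 0 := by
  rw [sq_eq]
  show mk (beta κ (Pi.single i (1, 0)) (Pi.single i (1, 0))) 0 = _
  rw [beta_single_right]
  simp

theorem sq_ey (i : Fin n) : (ey i : XS n κ) ^ 2 = mk (κ i) 0 := by
  rw [sq_eq]
  show mk (beta κ (Pi.single i (0, 1)) (Pi.single i (0, 1))) 0 = _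
  rw [beta_single_right]
  simp

/-- the commutator of the standard generators is the central involution -/
theorem commutator_ex_ey (i : Fin n) : ⁅(ex i : XS n κ), (ey i : XS n κ)⁆ = mk 1 0 := by
  have h1 : ⁅(ex i : XS n κ), (ey i : XS n κ)⁆ ∈ center (XS n κ) := commutator_mem_center _ _
  have h2 : (mk 1 0 : XS n κ) ∈ center (XS n κ) := (mem_center_iff' _).mpr rfl
  exact central_eq card_center h1 (commutator_ex_ey_ne i) h2 mk_one_ne_one

theorem card_elemAb_zero : 2 ^ (n + 1) ≤ Nat.card (elemAb (0 : Fin n → ZMod 2)) := by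
  let f : ZMod 2 × (Fin n → ZMod 2) → elemAb (0 : Fin n → ZMod 2) :=
    fun t => ⟨mk t.1 (fun i => (t.2 i, 0)), fun i => ⟨rfl, by simp⟩⟩
  have hf : Function.Injective f := by
    intro s t h
    have h1 := congrArg (fun a : elemAb (0 : Fin n → ZMod 2) => fs a.1) h
    have h2 := congrArg (fun a : elemAb (0 : Fin n → ZMod 2) => sn a.1) h
    apply Prod.ext
    · exact h1
    · funext i
      exact congrArg Prod.fst (congrFun h2 i)
  have h := Nat.card_le_card_of_injective f hf
  rw [Nat.card_prod, Nat.card_fun, Nat.card_zmod, Nat.card_fin] at h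
  rw [pow_succ, mul_comm]
  exact h

theorem card_elemAb_single (m : ℕ) :
    2 ^ (m + 1) ≤ Nat.card (elemAb (Pi.single 0 1 : Fin (m + 1) → ZMod 2)) := by
  let f : ZMod 2 × (Fin m → ZMod 2) → elemAb (Pi.single 0 1 : Fin (m + 1) → ZMod 2) :=
    fun t => ⟨mk t.1 (Fin.cons (0, 0) (fun i => (t.2 i, 0))), fun i => by
      refine Fin.cases ?_ (fun j => ?_) i
      · exact ⟨rfl, by simp [sn_mk]⟩
      · refine ⟨rfl, ?_⟩
        rw [Pi.single_eq_of_ne (Fin.succ_ne_zero j), zero_mul]⟩
  have hf : Function.Injective f := by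
    intro s t h
    have h1 := congrArg (fun a : elemAb (Pi.single 0 1 : Fin (m + 1) → ZMod 2) => fs a.1) h
    have h2 := congrArg (fun a : elemAb (Pi.single 0 1 : Fin (m + 1) → ZMod 2) => sn a.1) h
    apply Prod.ext
    · exact h1
    · funext i
      have h3 := congrArg Prod.fst (congrFun h2 (Fin.succ i))
      simp only [f, sn_mk, Fin.cons_succ] at h3
      exact h3
  have h := Nat.card_le_card_of_injective f hf
  rw [Nat.card_prod, Nat.card_fun, Nat.card_zmod, Nat.card_fin] at h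
  rw [pow_succ, mul_comm]
  exact h

/-- existence of the plus type -/
theorem exists_plus (n : ℕ) (hn : 1 ≤ n) : ∃ (E : Type) (_ : Group E) (_ : Finite E),
    Nat.card (center E) = 2 ∧ (∀ a b : E, ⁅a, b⁆ ∈ center E) ∧ (∃ a b : E, ⁅a, b⁆ ≠ 1) ∧
    Nat.card E = 2 ^ (2 * n + 1) ∧
    ∃ A : Subgroup E, IsMulCommutative A ∧ (∀ a ∈ A, a ^ 2 = 1) ∧ 2 ^ (n + 1) ≤ Nat.card A :=
  ⟨XS n 0, instGroupXS, instFiniteXS, card_center, commutator_mem_center,
    ⟨ex ⟨0, hn⟩, ey ⟨0, hn⟩, commutator_ex_ey_ne _⟩, card_XS,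
    elemAb 0, elemAb_comm, elemAb_sq, card_elemAb_zero⟩

/-- existence of the minus type -/
theorem exists_minus (m : ℕ) : ∃ (E : Type) (_ : Group E) (_ : Finite E),
    Nat.card (center E) = 2 ∧ (∀ a b : E, ⁅a, b⁆ ∈ center E) ∧ (∃ a b : E, ⁅a, b⁆ ≠ 1) ∧
    Nat.card E = 2 ^ (2 * (m + 1) + 1) ∧ invCount E + 2 ^ (m + 1) = 2 ^ (2 * (m + 1)) := by
  refine ⟨XS (m + 1) (Pi.single 0 1), instGroupXS, instFiniteXS, card_center,
    commutator_mem_center, ⟨ex 0, ey 0, commutator_ex_ey_ne _⟩, card_XS, ?_⟩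
  have hZ := card_center (n := m + 1) (κ := Pi.single 0 1)
  have hc := commutator_mem_center (n := m + 1) (κ := Pi.single 0 1)
  have hxy := commutator_ex_ey_ne (κ := (Pi.single 0 1 : Fin (m + 1) → ZMod 2)) 0
  have hk : (Pi.single 0 1 : Fin (m + 1) → ZMod 2) 0 = 1 := Pi.single_eq_same _ _
  have hx : (ex 0 : XS (m + 1) (Pi.single 0 1)) ^ 2 =
      ⁅(ex 0 : XS (m + 1) (Pi.single 0 1)), (ey 0 : XS (m + 1) (Pi.single 0 1))⁆ := by
    rw [sq_ex, commutator_ex_ey, hk]
  have hy : (ey 0 : XS (m + 1) (Pi.single 0 1)) ^ 2 =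
      ⁅(ex 0 : XS (m + 1) (Pi.single 0 1)), (ey 0 : XS (m + 1) (Pi.single 0 1))⁆ := by
    rw [sq_ey, commutator_ex_ey, hk]
  have hcount := count_Q8 hZ hc _ _ hxy hx hy
  have hB := card_pairKer hZ hc _ _ hxy
  rw [card_XS] at hB
  have eC : 2 ^ (2 * (m + 1) + 1) = 8 * 2 ^ (2 * m) := by ring
  have eD : 2 ^ (2 * (m + 1)) = 4 * 2 ^ (2 * m) := by ring
  have eE : 2 ^ (2 * m + 1) = 2 * 2 ^ (2 * m) := by ring
  have eB : 2 ^ (m + 1) = 2 * 2 ^ m := by ring
  have hBcard : Nat.card (pairKer hc (ex 0) (ey 0)) = 2 ^ (2 * m + 1) := by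
    rw [eE]; rw [eC] at hB; omega
  have hle : elemAb (Pi.single 0 1 : Fin (m + 1) → ZMod 2) ≤ pairKer hc (ex 0) (ey 0) := by
    intro a ha
    rw [mem_pairKer]
    have h0 := ha 0
    rw [hk, one_mul] at h0
    exact ⟨(commute_ex_iff a 0).mpr h0.1, (commute_ey_iff a 0).mpr h0.2⟩
  have hcardA : Nat.card ((elemAb (Pi.single 0 1 : Fin (m + 1) → ZMod 2)).subgroupOf
      (pairKer hc (ex 0) (ey 0))) = Nat.card (elemAb (Pi.single 0 1 : Fin (m + 1) → ZMod 2)) :=
    Nat.card_congr (Subgroup.subgroupOfEquivOfLe hle).toEquiv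
  have hplus := (rank_aux m (pairKer hc (ex 0) (ey 0)) (card_center_pairKer hZ hc _ _ hxy)
    (commutator_mem_center_pairKer hZ hc _ _ hxy) hBcard).2.2.1
    ⟨(elemAb (Pi.single 0 1 : Fin (m + 1) → ZMod 2)).subgroupOf (pairKer hc (ex 0) (ey 0)),
      inferInstance, by
        intro a ha
        rw [Subgroup.mem_subgroupOf] at ha
        apply Subtype.ext
        rw [Subgroup.coe_pow, elemAb_sq _ ha, Subgroup.coe_one], by
        rw [hcardA]; exact card_elemAb_single m⟩
  rw [hplus, hBcard, eE] at hcount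
  rw [eD, eB]
  omega

end Cfsg.Agent.Lib.Helper2.ES2X
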