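import Mathlib
import Cfsg.Agent.Lib.Helper2.GraphIso

/-!
# The graph trick, with the graph characterised

Variants of `exists_mulEquiv_of_subgroup_prod` and `exists_mulEquiv_closure_pair` that record
that the subgroup `R ≤ E × E'` is exactly the graph of the isomorphism.
-/

namespace Cfsg.Agent.Lib.Helper2

open Subgroup
open scoped commutatorElement

variable {E E' : Type*} [Group E] [Group E']

theorem exists_mulEquiv_of_subgroup_prod_iff (R : Subgroup (E × E')) [Finite R]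
    (A : Subgroup E) (A' : Subgroup E')
    (h1 : R.map (MonoidHom.fst E E') = A) (h2 : R.map (MonoidHom.snd E E') = A')
    (hc1 : Nat.card R ≤ Nat.card A) (hc2 : Nat.card R ≤ Nat.card A') :
    ∃ α : A ≃* A', ∀ (u : A) (u' : A'), α u = u' ↔ ((u : E), (u' : E')) ∈ R := by
  let F₁ : R →* A := ((MonoidHom.fst E E').comp R.subtype).codRestrict A
    (fun r => h1 ▸ Subgroup.mem_map_of_mem _ r.2)
  let F₂ : R →* A' := ((MonoidHom.snd E E').comp R.subtype).codRestrict A'
    (fun r => h2 ▸ Subgroup.mem_map_of_mem _ r.2)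
  have hs1 : Function.Surjective F₁ := by
    rintro ⟨u, hu⟩
    rw [← h1] at hu
    obtain ⟨r, hr, rfl⟩ := hu
    exact ⟨⟨r, hr⟩, rfl⟩
  have hs2 : Function.Surjective F₂ := by
    rintro ⟨u, hu⟩
    rw [← h2] at hu
    obtain ⟨r, hr, rfl⟩ := hu
    exact ⟨⟨r, hr⟩, rfl⟩
  have hb1 : Function.Bijective F₁ := hs1.bijective_of_nat_card_le hc1
  have hb2 : Function.Bijective F₂ := hs2.bijective_of_nat_card_le hc2
  let e₁ : R ≃* A := MulEquiv.ofBijective F₁ hb1
  let e₂ : R ≃* A' := MulEquiv.ofBijective F₂ hb2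
  have key : ∀ r : R, (e₁.symm.trans e₂) (e₁ r) = e₂ r := by
    intro r
    rw [MulEquiv.trans_apply, MulEquiv.symm_apply_apply]
  refine ⟨e₁.symm.trans e₂, ?_⟩
  intro u u'
  constructor
  · intro h
    obtain ⟨r, rfl⟩ := e₁.surjective u
    rw [key] at h
    rw [← h]
    exact r.2
  · intro h
    have h3 : e₁ ⟨((u : E), (u' : E')), h⟩ = u := Subtype.ext rfl
    have h4 : e₂ ⟨((u : E), (u' : E')), h⟩ = u' := Subtype.ext rfl
    rw [← h3, key, h4]

theorem exists_mulEquiv_closure_pair_iff [Finite E] [Finite E'] (p : ℕ) (hp : 0 < p)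
    (x y : E) (x' y' : E')
    (hcx : Commute ⁅x, y⁆ x) (hcy : Commute ⁅x, y⁆ y)
    (hcx' : Commute ⁅x', y'⁆ x') (hcy' : Commute ⁅x', y'⁆ y')
    (hzp : ⁅x, y⁆ ^ p = 1) (hzp' : ⁅x', y'⁆ ^ p = 1)
    (a b : ℕ) (hx : x ^ p = ⁅x, y⁆ ^ a) (hx' : x' ^ p = ⁅x', y'⁆ ^ a)
    (hy : y ^ p = ⁅x, y⁆ ^ b) (hy' : y' ^ p = ⁅x', y'⁆ ^ b)
    (hcard : p ^ 3 ≤ Nat.card (closure ({x, y} : Set E)))
    (hcard' : p ^ 3 ≤ Nat.card (closure ({x', y'} : Set E'))) :
    ∃ α : closure ({x, y} : Set E) ≃* closure ({x', y'} : Set E'),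
      ∀ (u : closure ({x, y} : Set E)) (u' : closure ({x', y'} : Set E')),
        α u = u' ↔ ((u : E), (u' : E')) ∈ closure ({(x, x'), (y, y')} : Set (E × E')) := by
  have hRcard : Nat.card (closure ({(x, x'), (y, y')} : Set (E × E'))) ≤ p ^ 3 := by
    apply card_closure_pair_le p hp
    · rw [commutatorElement_prod_mk]; exact Prod.ext hcx.eq hcx'.eq
    · rw [commutatorElement_prod_mk]; exact Prod.ext hcy.eq hcy'.eq
    · rw [commutatorElement_prod_mk]; exact Prod.ext hzp hzp'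
    · exact ⟨a, by rw [commutatorElement_prod_mk]; exact Prod.ext hx hx'⟩
    · exact ⟨b, by rw [commutatorElement_prod_mk]; exact Prod.ext hy hy'⟩
  apply exists_mulEquiv_of_subgroup_prod_iff
  · rw [MonoidHom.map_closure, Set.image_pair]; rfl
  · rw [MonoidHom.map_closure, Set.image_pair]; rfl
  · exact hRcard.trans hcard
  · exact hRcard.trans hcard'

/-- Two cyclic groups of the same prime order, with chosen generators, are isomorphic by an
isomorphism matching the generators. -/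
theorem exists_mulEquiv_of_card_prime [Finite E] [Finite E'] {p : ℕ} [Fact p.Prime]
    (hE : Nat.card E = p) (hE' : Nat.card E' = p) (z : E) (z' : E') (hz : z ≠ 1) (hz' : z' ≠ 1) :
    ∃ φ : E ≃* E', φ z = z' := by
  have hp : p.Prime := Fact.out
  have hR : Nat.card (zpowers ((z, z') : E × E')) ≤ p := by
    rw [Nat.card_zpowers]
    apply Nat.le_of_dvd hp.pos
    apply orderOf_dvd_of_pow_eq_one
    have h1 : z ^ p = 1 := by rw [← hE]; exact pow_card_eq_one'
    have h2 : z' ^ p = 1 := by rw [← hE']; exact pow_card_eq_one'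
    exact Prod.ext h1 h2
  obtain ⟨α, hα⟩ := exists_mulEquiv_of_subgroup_prod_iff (zpowers ((z, z') : E × E')) ⊤ ⊤
    (by rw [MonoidHom.map_zpowers]; exact zpowers_eq_top_of_prime_card hE hz)
    (by rw [MonoidHom.map_zpowers]; exact zpowers_eq_top_of_prime_card hE' hz')
    (by rw [Subgroup.card_top, hE]; exact hR) (by rw [Subgroup.card_top, hE']; exact hR)
  refine ⟨(Subgroup.topEquiv.symm.trans α).trans Subgroup.topEquiv, ?_⟩
  have h3 : α ⟨z, Subgroup.mem_top z⟩ = ⟨z', Subgroup.mem_top z'⟩ :=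
    (hα _ _).mpr (Subgroup.mem_zpowers _)
  show ((α ⟨z, Subgroup.mem_top z⟩ : (⊤ : Subgroup E')) : E') = z'
  rw [h3]

end Cfsg.Agent.Lib.Helper2
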