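import Mathlib
import Cfsg.Agent.Lib.Helper2.ESL
import Cfsg.Agent.Lib.Helper2.GraphIso2

/-!
# Extraspecial groups of exponent `p` are determined by their order

`nonempty_mulEquiv_of_exponent`: two finite groups with centre of order `p`, central commutators
and `g ^ p = 1` for all `g`, of the same order, are isomorphic, by an isomorphism matching
any prescribed nontrivial central elements.
-/

set_option linter.unusedSectionVars false

namespace Cfsg.Agent.Lib.Helper2.ESL

open Subgroup Cfsg.Agent.Lib.Helper2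
open scoped commutatorElement

universe u v

section

variable {E : Type*} [Group E] [Finite E] {p : ℕ} [Fact p.Prime]

theorem card_eq_of_abelian (hZ : Nat.card (center E) = p) (hab : ∀ a b : E, ⁅a, b⁆ = 1) :
    Nat.card E = p := by
  have htop : center E = ⊤ := by
    rw [eq_top_iff]; intro g _; rw [Subgroup.mem_center_iff]; intro h
    exact (commutatorElement_eq_one_iff_commute.mp (hab h g)).eq
  rw [← hZ, htop, Subgroup.card_top]

theorem abelian_of_card_eq (hZ : Nat.card (center E) = p) (h : Nat.card E = p) (a b : E) :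
    ⁅a, b⁆ = 1 := by
  have htop : center E = ⊤ := Subgroup.eq_top_of_card_eq _ (by rw [hZ, h])
  rw [commutatorElement_eq_one_iff_commute]
  have hb : b ∈ center E := htop ▸ Subgroup.mem_top b
  exact (Subgroup.mem_center_iff.mp hb a)

theorem exists_pair_commutator_eq (hZ : Nat.card (center E) = p)
    (hc : ∀ a b : E, ⁅a, b⁆ ∈ center E) (hnab : ∃ a b : E, ⁅a, b⁆ ≠ 1) {z : E}
    (hz : z ∈ center E) : ∃ x y : E, ⁅x, y⁆ = z := by
  obtain ⟨a, b, hab⟩ := hnab
  obtain ⟨k, hk⟩ := exists_pow_eq_of_mem_center hZ (hc a b) hab hz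
  exact ⟨a ^ k, b, by rw [commutatorElement_pow_left a b (hc a b) k, hk]⟩

end

theorem nonempty_mulEquiv_of_exponent {p : ℕ} [Fact p.Prime] :
    ∀ (n : ℕ) (E : Type u) (E' : Type v) [Group E] [Group E'] [Finite E] [Finite E'],
    Nat.card E ≤ n → Nat.card (center E) = p → (∀ a b : E, ⁅a, b⁆ ∈ center E) →
    Nat.card (center E') = p → (∀ a b : E', ⁅a, b⁆ ∈ center E') →
    (∀ g : E, g ^ p = 1) → (∀ g : E', g ^ p = 1) → Nat.card E = Nat.card E' →
    ∀ (z : E) (z' : E'), z ∈ center E → z ≠ 1 → z' ∈ center E' → z' ≠ 1 →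
      ∃ φ : E ≃* E', φ z = z' := by
  intro n
  induction n with
  | zero =>
    intro E E' _ _ _ _ h
    have := Nat.card_pos (α := E)
    omega
  | succ n ih =>
    intro E E' _ _ _ _ hcard hZ hc hZ' hc' hexp hexp' hEE' z z' hz hz1 hz' hz1'
    have hp : p.Prime := Fact.out
    by_cases hab : ∃ a b : E, ⁅a, b⁆ ≠ 1
    · have hab' : ∃ a b : E', ⁅a, b⁆ ≠ 1 := by
        by_contra h
        have h2 : Nat.card E' = p := card_eq_of_abelian hZ'
          (by intro a b; by_contra h3; exact h ⟨a, b, h3⟩)
        have h3 : Nat.card E = p := by rw [hEE', h2]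
        obtain ⟨a, b, h4⟩ := hab
        exact h4 (abelian_of_card_eq hZ h3 a b)
      obtain ⟨x, y, hxy⟩ := exists_pair_commutator_eq hZ hc hab hz
      obtain ⟨x', y', hxy'⟩ := exists_pair_commutator_eq hZ' hc' hab' hz'
      have hne : ⁅x, y⁆ ≠ 1 := by rw [hxy]; exact hz1
      have hne' : ⁅x', y'⁆ ≠ 1 := by rw [hxy']; exact hz1'
      have h1 := card_pairKer hZ hc x y hne
      have h1' := card_pairKer hZ' hc' x' y' hne'
      have hpos := Nat.card_pos (α := pairKer hc x y)
      have hp2 : 2 ≤ p := hp.two_le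
      have hBn : Nat.card (pairKer hc x y) ≤ n := by
        have h4 : 4 ≤ p * p := by nlinarith
        have : Nat.card (pairKer hc x y) * 4 ≤ Nat.card (pairKer hc x y) * (p * p) :=
          Nat.mul_le_mul_left _ h4
        omega
      have hBB' : Nat.card (pairKer hc x y) = Nat.card (pairKer hc' x' y') := by
        have h5 : Nat.card (pairKer hc x y) * (p * p) =
            Nat.card (pairKer hc' x' y') * (p * p) := by rw [h1, h1', hEE']
        exact Nat.eq_of_mul_eq_mul_right (by positivity) h5
      have hzB : z ∈ pairKer hc x y := center_le_pairKer hc x y hz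
      have hzB' : z' ∈ pairKer hc' x' y' := center_le_pairKer hc' x' y' hz'
      obtain ⟨β, hβ⟩ := ih (pairKer hc x y) (pairKer hc' x' y') hBn
        (card_center_pairKer hZ hc x y hne) (commutator_mem_center_pairKer hZ hc x y hne)
        (card_center_pairKer hZ' hc' x' y' hne')
        (commutator_mem_center_pairKer hZ' hc' x' y' hne')
        (fun g => Subtype.ext (by rw [Subgroup.coe_pow, hexp, Subgroup.coe_one]))
        (fun g => Subtype.ext (by rw [Subgroup.coe_pow, hexp', Subgroup.coe_one])) hBB'
        ⟨z, hzB⟩ ⟨z', hzB'⟩ ((mem_center_pairKer_iff hZ hc x y hne _).mpr hz)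
        (by intro h; exact hz1 (congrArg Subtype.val h))
        ((mem_center_pairKer_iff hZ' hc' x' y' hne' _).mpr hz')
        (by intro h; exact hz1' (congrArg Subtype.val h))
      have hzc : ∀ g : E, Commute ⁅x, y⁆ g :=
        fun g => (Subgroup.mem_center_iff.mp (hc x y) g).symm
      have hzc' : ∀ g : E', Commute ⁅x', y'⁆ g :=
        fun g => (Subgroup.mem_center_iff.mp (hc' x' y') g).symm
      obtain ⟨α, hα⟩ := exists_mulEquiv_closure_pair_iff p hp.pos x y x' y' (hzc x) (hzc y)
        (hzc' x') (hzc' y') (commutator_pow_eq_one hZ hc x y)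
        (commutator_pow_eq_one hZ' hc' x' y') 0 0
        (by rw [hexp, pow_zero]) (by rw [hexp', pow_zero]) (by rw [hexp, pow_zero])
        (by rw [hexp', pow_zero])
        (by rw [card_closure_pair hZ hc x y hne]) (by rw [card_closure_pair hZ' hc' x' y' hne'])
      have hzA : ∀ k : ℕ, z ^ k ∈ closure ({x, y} : Set E) := fun k => by
        rw [← hxy]; exact pow_mem (commutator_mem_closure x y) k
      have hzA' : ∀ k : ℕ, z' ^ k ∈ closure ({x', y'} : Set E') := fun k => by
        rw [← hxy']; exact pow_mem (commutator_mem_closure x' y') k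
      have hαz : ∀ k : ℕ, α ⟨z ^ k, hzA k⟩ = ⟨z' ^ k, hzA' k⟩ := by
        intro k
        rw [hα]
        have h0 : ⁅((x, x') : E × E'), (y, y')⁆ ∈
            closure ({(x, x'), (y, y')} : Set (E × E')) := commutator_mem_closure _ _
        have h2 := pow_mem h0 k
        rw [commutatorElement_prod_mk, hxy, hxy'] at h2
        exact h2
      have hβz : ∀ k : ℕ, β ⟨z ^ k, pow_mem hzB k⟩ = ⟨z' ^ k, pow_mem hzB' k⟩ := by
        intro k
        have h2 : (⟨z ^ k, pow_mem hzB k⟩ : pairKer hc x y) = ⟨z, hzB⟩ ^ k := rfl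
        rw [h2, map_pow, hβ]; rfl
      have hcompat : ∀ (u : closure ({x, y} : Set E)) (v : pairKer hc x y),
          (u : E) = v ↔ (α u : E') = β v := by
        intro u v
        constructor
        · intro h
          have hcen : (u : E) ∈ center E :=
            closure_inf_pairKer_le_center hZ hc x y hne ⟨u.2, by rw [h]; exact v.2⟩
          obtain ⟨k, hk⟩ := exists_pow_eq_of_mem_center hZ hz hz1 hcen
          have hu : u = ⟨z ^ k, hzA k⟩ := Subtype.ext hk.symm
          have hv : v = ⟨z ^ k, pow_mem hzB k⟩ := Subtype.ext (by rw [← h]; exact hk.symm)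
          rw [hu, hv, hαz, hβz]
        · intro h
          have hcen : (α u : E') ∈ center E' :=
            closure_inf_pairKer_le_center hZ' hc' x' y' hne' ⟨(α u).2, by rw [h]; exact (β v).2⟩
          obtain ⟨k, hk⟩ := exists_pow_eq_of_mem_center hZ' hz' hz1' hcen
          have hu : α u = α ⟨z ^ k, hzA k⟩ := by
            rw [hαz]; exact Subtype.ext hk.symm
          have hv : β v = β ⟨z ^ k, pow_mem hzB k⟩ := by
            rw [hβz]; exact Subtype.ext (by rw [← h]; exact hk.symm)
          rw [α.injective hu, β.injective hv]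
      obtain ⟨φ, hφ⟩ := exists_mulEquiv_of_central_product _ _ _ _
        (commute_closure_pairKer hc x y) (commute_closure_pairKer hc' x' y')
        (exists_mul_closure_pairKer hZ hc x y hne) (exists_mul_closure_pairKer hZ' hc' x' y' hne')
        α β hcompat
      refine ⟨φ, ?_⟩
      have h3 := hφ ⟨z ^ 1, hzA 1⟩ 1
      rw [hαz 1] at h3
      simpa using h3
    · have hab' : ∀ a b : E, ⁅a, b⁆ = 1 := by
        intro a b; by_contra h; exact hab ⟨a, b, h⟩
      have h2 : Nat.card E = p := card_eq_of_abelian hZ hab'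
      have h2' : Nat.card E' = p := by rw [← hEE', h2]
      exact exists_mulEquiv_of_card_prime h2 h2' z z' hz1 hz1'

end Cfsg.Agent.Lib.Helper2.ESL
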