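import Mathlib
import Cfsg.Prelude.Def_Transfer

set_option autoImplicit false

namespace Cfsg.Agent.Lib.Helper2

variable {G : Type*} [Group G]

/-- A subgroup containing a Sylow `q`-subgroup for every prime `q` is the whole group. -/
theorem eq_top_of_forall_sylow_le {N : Type*} [Group N] [Finite N] (C : Subgroup N)
    (h : ∀ q : ℕ, ∀ _ : Fact q.Prime, ∃ S : Sylow q N, (S : Subgroup N) ≤ C) : C = ⊤ := by
  rw [← Subgroup.index_eq_one, Nat.eq_one_iff_not_exists_prime_dvd]
  intro q hq hdvd
  have : Fact q.Prime := ⟨hq⟩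
  obtain ⟨S, hS⟩ := h q ⟨hq⟩
  exact S.not_dvd_index (dvd_trans hdvd (Subgroup.index_dvd_of_le hS))

/-- The conjugation action of a subgroup `Q ≤ N_G(P)` on `P`. -/
@[reducible] def conjMulAction (P Q : Subgroup G) (h : Q ≤ Subgroup.normalizer (P : Set G)) : MulAction Q P where
  smul a x := ⟨a * x * (a : G)⁻¹, (Subgroup.mem_normalizer_iff.mp (h a.2) x).mp x.2⟩
  one_smul x := by
    apply Subtype.ext
    show ((1 : Q) : G) * x * ((1 : Q) : G)⁻¹ = x
    simp
  mul_smul a b x := by
    apply Subtype.ext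
    show ((a * b : Q) : G) * x * ((a * b : Q) : G)⁻¹ = a * (b * x * (b : G)⁻¹) * (a : G)⁻¹
    simp [mul_assoc]

/-- Fixed point congruence for a `q`-group `Q ≤ N_G(P)` acting on a finite subgroup `P`. -/
theorem card_modEq_card_inf_centralizer [Finite G] (P Q : Subgroup G) (q : ℕ) [Fact q.Prime]
    (hQ : IsPGroup q Q) (h : Q ≤ Subgroup.normalizer (P : Set G)) :
    Nat.card P ≡ Nat.card (P ⊓ Subgroup.centralizer (Q : Set G) : Subgroup G) [MOD q] := by
  let _ := conjMulAction P Q h
  have h1 := hQ.card_modEq_card_fixedPoints (α := P)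
  have h2 : Nat.card (MulAction.fixedPoints Q P)
      = Nat.card (P ⊓ Subgroup.centralizer (Q : Set G) : Subgroup G) := by
    apply Nat.card_congr
    refine ⟨fun x => ⟨x.1.1, x.1.2, ?_⟩, fun y => ⟨⟨y.1, y.2.1⟩, ?_⟩, ?_, ?_⟩
    · intro a ha
      have hx := x.2 ⟨a, ha⟩
      have hx' : a * (x.1 : G) * a⁻¹ = x.1 := congrArg Subtype.val hx
      have : a * (x.1 : G) = x.1 * a := by
        have := congrArg (fun t => t * a) hx'
        simpa [mul_assoc] using this
      exact this
    · intro a
      apply Subtype.ext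
      show (a : G) * y.1 * (a : G)⁻¹ = y.1
      have := y.2.2 a a.2
      rw [this, mul_inv_cancel_right]
    · intro x; rfl
    · intro y; rfl
  rw [← h2]
  exact h1

/-- If every `q`-subgroup (`q ≠ p`) of `N_G(P)` centralizes the abelian Sylow `p`-subgroup `P`,
then `N_G(P) ≤ C_G(P)`. -/
theorem normalizer_le_centralizer_of_forall [Finite G] {p : ℕ} [Fact p.Prime] (P : Sylow p G)
    (hP : IsMulCommutative P)
    (h : ∀ q : ℕ, q.Prime → q ≠ p → ∀ Q : Subgroup G, IsPGroup q Q →
      Q ≤ Subgroup.normalizer (P : Set G) → Q ≤ Subgroup.centralizer (P : Set G)) :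
    Subgroup.normalizer (P : Set G) ≤ Subgroup.centralizer (P : Set G) := by
  have hPC : (P : Subgroup G) ≤ Subgroup.centralizer (P : Set G) := by
    intro x hx y hy
    have := hP.is_comm.comm ⟨y, hy⟩ ⟨x, hx⟩
    exact congrArg Subtype.val this
  have key : (Subgroup.centralizer (P : Set G)).subgroupOf (Subgroup.normalizer (P : Set G)) = ⊤ := by
    apply eq_top_of_forall_sylow_le
    intro q hq
    by_cases hqp : q = p
    · subst hqp
      refine ⟨P.subtype Subgroup.le_normalizer, ?_⟩
      rw [Sylow.coe_subtype]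
      intro x hx
      exact hPC hx
    · let S : Sylow q (Subgroup.normalizer (P : Set G)) := default
      refine ⟨S, ?_⟩
      have h1 : (S : Subgroup (Subgroup.normalizer (P : Set G))).map
          (Subgroup.normalizer (P : Set G)).subtype ≤ Subgroup.centralizer (P : Set G) := by
        apply h q hq.out hqp
        · exact S.2.map _
        · exact Subgroup.map_subtype_le _
      intro x hx
      exact h1 ⟨x, hx, rfl⟩
  intro x hx
  have : (⟨x, hx⟩ : Subgroup.normalizer (P : Set G)) ∈
      (Subgroup.centralizer (P : Set G)).subgroupOf (Subgroup.normalizer (P : Set G)) := by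
    rw [key]; trivial
  exact this

/-- Numerical criterion for `N_G(P) ≤ C_G(P)` for an abelian Sylow `p`-subgroup `P`. -/
theorem normalizer_le_centralizer_of_numeric [Finite G] {p : ℕ} [Fact p.Prime] (P : Sylow p G)
    (hP : IsMulCommutative P)
    (h : ∀ q : ℕ, q.Prime → q ≠ p → q ∣ Nat.card G → ∀ d : ℕ, d ∣ Nat.card P → d < Nat.card P →
      ¬ (Nat.card P ≡ d [MOD q])) :
    Subgroup.normalizer (P : Set G) ≤ Subgroup.centralizer (P : Set G) := by
  apply normalizer_le_centralizer_of_forall P hP
  intro q hq hqp Q hQ hQN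
  have : Fact q.Prime := ⟨hq⟩
  by_cases hQbot : Q = ⊥
  · rw [hQbot]; exact bot_le
  have hqG : q ∣ Nat.card G := by
    have h1 : Nat.card Q ∣ Nat.card G := Subgroup.card_subgroup_dvd_card Q
    have h2 : q ∣ Nat.card Q := by
      obtain ⟨k, hk⟩ := hQ.exists_card_eq
      rw [hk]
      rcases Nat.eq_zero_or_pos k with h0 | h0
      · exfalso
        rw [h0, pow_zero] at hk
        exact hQbot (Subgroup.card_eq_one.mp hk)
      · exact dvd_pow_self q h0.ne'
    exact dvd_trans h2 h1
  have hmod := card_modEq_card_inf_centralizer (P : Subgroup G) Q q hQ hQN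
  have hdvd : Nat.card ((P : Subgroup G) ⊓ Subgroup.centralizer (Q : Set G) : Subgroup G)
      ∣ Nat.card (P : Subgroup G) := Subgroup.card_dvd_of_le inf_le_left
  have hle : Nat.card ((P : Subgroup G) ⊓ Subgroup.centralizer (Q : Set G) : Subgroup G)
      ≤ Nat.card (P : Subgroup G) := Nat.le_of_dvd Nat.card_pos hdvd
  have heq : Nat.card ((P : Subgroup G) ⊓ Subgroup.centralizer (Q : Set G) : Subgroup G)
      = Nat.card (P : Subgroup G) := by
    by_contra hne
    exact h q hq hqp hqG _ hdvd (lt_of_le_of_ne hle hne) hmod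
  have hPle : (P : Subgroup G) ≤ Subgroup.centralizer (Q : Set G) := by
    have := Subgroup.eq_of_le_of_card_ge (inf_le_left :
      (P : Subgroup G) ⊓ Subgroup.centralizer (Q : Set G) ≤ (P : Subgroup G)) heq.ge
    rw [← this]; exact inf_le_right
  intro a ha x hx
  exact (hPle hx a ha).symm

end Cfsg.Agent.Lib.Helper2
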