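import Mathlib
import Cfsg.Agent.Lib.Helper90.ZG
import Cfsg.Agent.Lib.Helper58.Moebius

/-!
# Part (C) of S0732: a `ZGood p (p-1)` group is `PGL(2, p)`
-/

set_option autoImplicit false

namespace Cfsg.Agent.Lib.Helper2.ZGPGL

open Equiv Cfsg.Agent.Lib.Helper5.Zass Cfsg.Agent.Lib.Helper90.ZG

variable {p : ℕ} [Fact p.Prime]

/-- The basic consequence of the functional equation. -/
theorem phi_key {φ : ZMod p → ZMod p}
    (h0 : ∀ x, x ≠ 0 → φ x ≠ 0)
    (hmul : ∀ x y, x ≠ 0 → y ≠ 0 → φ (x * y) = φ x * φ y)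
    (hinv : ∀ x, x ≠ 0 → φ (φ x) = x)
    (h1 : φ 1 = 1) (hneg : φ (-1) = -1)
    (hE : ∀ x, x ≠ 0 → x ≠ -1 → φ (x + 1) + φ (φ x + 1) = 1)
    (x : ZMod p) (hx0 : x ≠ 0) (hx1 : x ≠ -1) :
    φ (x + 1) * (φ x - x) = (1 - x) * φ x := by
  have hy0 : φ x ≠ 0 := h0 x hx0
  have hy1 : φ x ≠ -1 := by
    intro h
    have h2 := hinv x hx0
    rw [h, hneg] at h2
    exact hx1 h2.symm
  have hxi0 : x⁻¹ ≠ 0 := inv_ne_zero hx0
  have hxi1 : x⁻¹ ≠ -1 := by
    intro h
    apply hx1
    have h2 : x = (x⁻¹)⁻¹ := (inv_inv x).symm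
    rw [h2, h, inv_neg_one]
  have hphi_inv : ∀ z, z ≠ 0 → φ z⁻¹ = (φ z)⁻¹ := by
    intro z hz
    have h2 := hmul z z⁻¹ hz (inv_ne_zero hz)
    rw [mul_inv_cancel₀ hz, h1] at h2
    exact eq_inv_of_mul_eq_one_right h2.symm
  have e1 := hE x hx0 hx1
  have e2 := hE x⁻¹ hxi0 hxi1
  have hx10 : x + 1 ≠ 0 := fun h => hx1 (eq_neg_of_add_eq_zero_left h)
  have hy10 : φ x + 1 ≠ 0 := fun h => hy1 (eq_neg_of_add_eq_zero_left h)
  have e3 : φ (x⁻¹ + 1) = φ (x + 1) * (φ x)⁻¹ := by
    have h2 : x⁻¹ + 1 = (x + 1) * x⁻¹ := by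
      rw [add_mul, mul_inv_cancel₀ hx0, one_mul, add_comm]
    rw [h2, hmul _ _ hx10 hxi0, hphi_inv x hx0]
  have e4 : φ (φ x⁻¹ + 1) = φ (φ x + 1) * x⁻¹ := by
    rw [hphi_inv x hx0]
    have h2 : (φ x)⁻¹ + 1 = (φ x + 1) * (φ x)⁻¹ := by
      rw [add_mul, mul_inv_cancel₀ hy0, one_mul, add_comm]
    rw [h2, hmul _ _ hy10 (inv_ne_zero hy0), hphi_inv (φ x) hy0, hinv x hx0]
  rw [e3, e4] at e2
  have e5 : φ (φ x + 1) = 1 - φ (x + 1) := by linear_combination e1
  rw [e5] at e2
  have e6 : φ (x + 1) * x + (1 - φ (x + 1)) * φ x = x * φ x := by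
    have h2 : (φ (x + 1) * (φ x)⁻¹ + (1 - φ (x + 1)) * x⁻¹) * (x * φ x) = 1 * (x * φ x) := by
      rw [e2]
    have h3 : (φ (x + 1) * (φ x)⁻¹ + (1 - φ (x + 1)) * x⁻¹) * (x * φ x)
        = φ (x + 1) * x + (1 - φ (x + 1)) * φ x := by
      field_simp
    rw [h3, one_mul] at h2
    exact h2
  linear_combination (-1 : ZMod p) * e6


theorem small_two : ∀ x : ZMod 2, x ≠ 0 → x = 1 ∨ x = -1 := by decide

theorem small_three : ∀ x : ZMod 3, x ≠ 0 → x = 1 ∨ x = -1 := by decide

/-- The functional equation forces `φ x = x⁻¹`. -/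
theorem phi_eq_inv {φ : ZMod p → ZMod p}
    (h0 : ∀ x, x ≠ 0 → φ x ≠ 0)
    (hmul : ∀ x y, x ≠ 0 → y ≠ 0 → φ (x * y) = φ x * φ y)
    (hinv : ∀ x, x ≠ 0 → φ (φ x) = x)
    (h1 : φ 1 = 1) (hneg : φ (-1) = -1)
    (hE : ∀ x, x ≠ 0 → x ≠ -1 → φ (x + 1) + φ (φ x + 1) = 1)
    (x : ZMod p) (hx0 : x ≠ 0) : φ x = x⁻¹ := by
  have hp : p.Prime := Fact.out
  have key := phi_key h0 hmul hinv h1 hneg hE
  by_cases hp5 : p < 5
  · have hx : x = 1 ∨ x = -1 := by
      have h23 : p = 2 ∨ p = 3 := by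
        have h2 := hp.two_le
        have h4 : p ≠ 4 := by
          rintro rfl
          exact absurd hp (by decide)
        omega
      rcases h23 with rfl | rfl
      · exact small_two x hx0
      · exact small_three x hx0
    rcases hx with rfl | rfl
    · rw [h1, inv_one]
    · rw [hneg, inv_neg_one]
  · have hp5' : 5 ≤ p := by omega
    have hcast : ∀ n : ℕ, 0 < n → n < p → ((n : ℕ) : ZMod p) ≠ 0 := by
      intro n hn hnp h
      rw [ZMod.natCast_eq_zero_iff] at h
      exact absurd (Nat.le_of_dvd hn h) (by omega)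
    have h2 : (2 : ZMod p) ≠ 0 := by
      have := hcast 2 (by norm_num) (by omega)
      exact_mod_cast this
    have h3 : (3 : ZMod p) ≠ 0 := by
      have := hcast 3 (by norm_num) (by omega)
      exact_mod_cast this
    have h4 : (4 : ZMod p) ≠ 0 := by
      have := hcast 4 (by norm_num) (by omega)
      exact_mod_cast this
    obtain ⟨u, hu⟩ : ∃ u, u = φ 2 := ⟨_, rfl⟩
    obtain ⟨w, hw⟩ : ∃ w, w = φ 3 := ⟨_, rfl⟩
    have hu0 : u ≠ 0 := hu ▸ h0 2 h2
    have k2 := key 2 h2 (by intro h; apply h3; linear_combination h)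
    have h21 : (2 : ZMod p) + 1 = 3 := by norm_num
    rw [h21, ← hu, ← hw] at k2
    have k3 := key 3 h3 (by intro h; apply h4; linear_combination h)
    have h31 : (3 : ZMod p) + 1 = 4 := by norm_num
    have h44 : φ 4 = u * u := by
      have h5 : (4 : ZMod p) = 2 * 2 := by norm_num
      rw [h5, hmul 2 2 h2 h2, ← hu]
    rw [h31, h44, ← hw] at k3
    have hfin : 2 * u * ((2 * u - 1) * (u - 1)) = 0 := by
      linear_combination (u * u + 2) * k2 - (u - 2) * k3
    have hfin2 : (2 * u - 1) * (u - 1) = 0 := by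
      rcases mul_eq_zero.1 hfin with h | h
      · exact absurd h (mul_ne_zero h2 hu0)
      · exact h
    have hu2 : φ 2 = (2 : ZMod p)⁻¹ := by
      rcases mul_eq_zero.1 hfin2 with h | h
      · rw [← hu]
        apply eq_inv_of_mul_eq_one_left
        linear_combination h
      · exfalso
        have hu1 : u = 1 := by linear_combination h
        have h6 := hinv 2 h2
        rw [← hu, hu1, h1] at h6
        apply one_ne_zero (α := ZMod p)
        linear_combination -h6
    have hind : ∀ n : ℕ, 2 ≤ n → n < p → φ (n : ZMod p) = ((n : ZMod p))⁻¹ := by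
      intro n hn
      induction n, hn using Nat.le_induction with
      | base =>
        intro _
        have h5 : ((2 : ℕ) : ZMod p) = 2 := by norm_num
        rw [h5]; exact hu2
      | succ n hn ih =>
        intro hnp
        have ihn := ih (by omega)
        have hn0 : (n : ZMod p) ≠ 0 := hcast n (by omega) (by omega)
        have hn1 : (n : ZMod p) ≠ -1 := by
          intro h
          have h5 : ((n + 1 : ℕ) : ZMod p) = 0 := by push_cast; rw [h]; ring
          exact hcast (n + 1) (by omega) hnp h5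
        have hn1' : (n : ZMod p) ≠ 1 := by
          intro h
          have h5 : ((n - 1 : ℕ) : ZMod p) = 0 := by
            rw [Nat.cast_sub (by omega)]; push_cast; rw [h]; ring
          exact hcast (n - 1) (by omega) (by omega) h5
        have k := key n hn0 hn1
        rw [ihn] at k
        have h1n : (1 : ZMod p) - n ≠ 0 := fun h => hn1' (by linear_combination -h)
        have k' : φ ((n : ZMod p) + 1) * ((n : ZMod p) + 1) = 1 := by
          have e : φ ((n : ZMod p) + 1) * (1 - n) * (1 + n) = (1 - n) := by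
            have h5 : φ ((n : ZMod p) + 1) * ((n : ZMod p)⁻¹ - n) * n
                = (1 - n) * (n : ZMod p)⁻¹ * n := by rw [k]
            have h6 : ((n : ZMod p)⁻¹ - n) * n = (1 - n) * (1 + n) := by
              rw [sub_mul, inv_mul_cancel₀ hn0]; ring
            have h7 : (1 - n) * (n : ZMod p)⁻¹ * n = 1 - n := by
              rw [mul_assoc, inv_mul_cancel₀ hn0, mul_one]
            rw [h7, mul_assoc, h6] at h5
            linear_combination h5
          apply mul_left_cancel₀ h1n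
          linear_combination e
        have h5 : ((n + 1 : ℕ) : ZMod p) = (n : ZMod p) + 1 := by push_cast; rfl
        rw [h5]
        exact eq_inv_of_mul_eq_one_left k'
    have hv : ((x.val : ℕ) : ZMod p) = x := ZMod.natCast_zmod_val x
    have hvlt : x.val < p := ZMod.val_lt x
    have hv0 : x.val ≠ 0 := by
      intro h
      apply hx0
      rw [← hv, h]; simp
    by_cases hv1 : x.val = 1
    · have hx1 : x = 1 := by rw [← hv, hv1]; simp
      rw [hx1, h1, inv_one]
    · have := hind x.val (by omega) hvlt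
      rwa [hv] at this


variable {H : Subgroup (Perm (Option (ZMod p)))}

theorem K_eq_top (hH : ZGood p (p - 1) H) : K H = ⊤ := by
  have hp : p.Prime := Fact.out
  apply Subgroup.eq_top_of_card_eq
  rw [hH.card_K, Nat.card_eq_fintype_card, ZMod.card_units_eq_totient, Nat.totient_prime hp]

theorem Aff_mem_all (hH : ZGood p (p - 1) H) (k : (ZMod p)ˣ) (b : ZMod p) : Aff k b ∈ H :=
  hH.Aff_mem (by rw [K_eq_top hH]; exact Subgroup.mem_top k) b

/-- A swap normalised to fix `1`. -/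
theorem exists_nswap (hH : ZGood p (p - 1) H) :
    ∃ s ∈ H, s none = some 0 ∧ s (some 0) = none ∧ s (some 1) = some 1 := by
  obtain ⟨s, hs, hs0, hs1⟩ := hH.exists_swap
  obtain ⟨v, hv0, hv⟩ := swap_some hs0 hs1 1 one_ne_zero
  refine ⟨Aff (Units.mk0 v hv0)⁻¹ 0 * s, H.mul_mem (Aff_mem_all hH _ _) hs, ?_, ?_, ?_⟩
  · rw [Perm.mul_apply, hs0, Aff_some]; simp
  · rw [Perm.mul_apply, hs1, Aff_none]
  · rw [Perm.mul_apply, hv, Aff_some]; simp [hv0]

/-- The normalised swap is the inversion. -/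
theorem swap_inv (hH : ZGood p (p - 1) H) {s : Perm (Option (ZMod p))} (hs : s ∈ H)
    (hs0 : s none = some 0) (hs1 : s (some 0) = none) (hs11 : s (some 1) = some 1) :
    ∀ x : ZMod p, x ≠ 0 → s (some x) = some x⁻¹ := by
  classical
  have hp : p.Prime := Fact.out
  obtain ⟨φ, hφdef⟩ : ∃ φ : ZMod p → ZMod p, φ = fun x => (s (some x)).getD 0 := ⟨_, rfl⟩
  have hφ : ∀ x, x ≠ 0 → s (some x) = some (φ x) ∧ φ x ≠ 0 := by
    intro x hx
    obtain ⟨v, hv0, hv⟩ := swap_some hs0 hs1 x hx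
    have h2 : φ x = v := by rw [hφdef]; simp [hv]
    rw [h2]; exact ⟨hv, hv0⟩
  have hss : s * s = 1 := by
    apply hH.eq_one_of_fix (H.mul_mem hs hs) (a := 0) (b := 1) ?_ zero_ne_one ?_ ?_
    · rw [Perm.mul_apply, hs0, hs1]
    · rw [Perm.mul_apply, hs1, hs0]
    · rw [Perm.mul_apply, hs11, hs11]
  have h0 : ∀ x, x ≠ 0 → φ x ≠ 0 := fun x hx => (hφ x hx).2
  have hinv : ∀ x, x ≠ 0 → φ (φ x) = x := by
    intro x hx
    have h2 : s (s (some x)) = some x := by
      have h3 := congrArg (fun π : Perm (Option (ZMod p)) => π (some x)) hss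
      simpa [Perm.mul_apply] using h3
    rw [(hφ x hx).1, (hφ _ (h0 x hx)).1] at h2
    exact Option.some.inj h2
  have h1 : φ 1 = 1 := by rw [hφdef]; simp [hs11]
  have hmul : ∀ x y, x ≠ 0 → y ≠ 0 → φ (x * y) = φ x * φ y := by
    intro x y hx hy
    obtain ⟨k', hk', hc⟩ := hH.conj_swap hs hs0 hs1 (k := Units.mk0 x hx)
      (by rw [K_eq_top hH]; exact Subgroup.mem_top _)
    have e1 := congrArg (fun π : Perm (Option (ZMod p)) => π (some 1)) hc
    simp only [Perm.mul_apply, Aff_some, Units.val_mk0, mul_one, add_zero, hs11] at e1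
    rw [(hφ x hx).1] at e1
    have hk : (k' : ZMod p) = φ x := (Option.some.inj e1).symm
    have e2 := congrArg (fun π : Perm (Option (ZMod p)) => π (some y)) hc
    simp only [Perm.mul_apply, Aff_some, Units.val_mk0, add_zero] at e2
    rw [(hφ y hy).1, Aff_some, add_zero, (hφ (x * y) (mul_ne_zero hx hy)).1, hk] at e2
    exact Option.some.inj e2
  have hm1 : (-1 : ZMod p) ≠ 0 := neg_ne_zero.2 one_ne_zero
  have hneg : φ (-1) = -1 := by
    have h2 : φ (-1) * φ (-1) = 1 := by
      rw [← hmul _ _ hm1 hm1]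
      have h3 : (-1 : ZMod p) * -1 = 1 := by ring
      rw [h3, h1]
    have h3 : φ (-1) = 1 ∨ φ (-1) = -1 := by
      have h4 : (φ (-1) - 1) * (φ (-1) + 1) = 0 := by linear_combination h2
      rcases mul_eq_zero.1 h4 with h | h
      · left; linear_combination h
      · right; linear_combination h
    rcases h3 with h | h
    · have h4 := hinv (-1) hm1
      rw [h, h1] at h4
      rw [h]; exact h4
    · exact h
  have hT : Tr (1 : ZMod p) ∈ H := hH.tr_mem
  have hg : (Tr (1 : ZMod p) * s)⁻¹ * (s * Tr 1 * s) ∈ H :=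
    H.mul_mem (H.inv_mem (H.mul_mem hT hs)) (H.mul_mem (H.mul_mem hs hT) hs)
  have hgfix : ((Tr (1 : ZMod p) * s)⁻¹ * (s * Tr 1 * s) : Perm (Option (ZMod p))) none = none := by
    rw [Perm.mul_apply, Perm.inv_eq_iff_eq]
    simp only [Perm.mul_apply, hs0, Tr_some, zero_add, hs11]
  obtain ⟨e, f, hef⟩ := hH.affine hg hgfix
  have hrel : s * Tr 1 * s = Tr 1 * s * Aff e f := by
    rw [← hef]; group
  have hrel' : ∀ z, s (Tr 1 (s z)) = Tr 1 (s (Aff e f z)) := by
    intro z
    have h2 := congrArg (fun π : Perm (Option (ZMod p)) => π z) hrel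
    simpa [Perm.mul_apply] using h2
  have hf : f = -1 := by
    have h2 := hrel' (some 0)
    rw [hs1, Tr_none, hs0, Aff_some, mul_zero, zero_add] at h2
    have hf0 : f ≠ 0 := by
      rintro rfl
      rw [hs1, Tr_none] at h2
      exact Option.some_ne_none _ h2
    rw [(hφ f hf0).1, Tr_some] at h2
    have h3 : φ f + 1 = 0 := (Option.some.inj h2).symm
    have h4 : φ f = -1 := eq_neg_of_add_eq_zero_left h3
    have h5 := hinv f hf0
    rw [h4, hneg] at h5
    exact h5.symm
  have he : (e : ZMod p) = -1 := by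
    have h2 := hrel' (some (-1))
    rw [(hφ (-1) hm1).1, hneg, Tr_some, neg_add_cancel, hs1, Aff_some, hf] at h2
    by_contra hne
    have hz : (e : ZMod p) * -1 + -1 ≠ 0 := by
      intro h; apply hne; linear_combination -h
    rw [(hφ _ hz).1, Tr_some] at h2
    exact Option.some_ne_none _ h2.symm
  have hE : ∀ x, x ≠ 0 → x ≠ -1 → φ (x + 1) + φ (φ x + 1) = 1 := by
    intro x hx0 hx1
    have h2 := hrel' (some x)
    have hy1 : φ x + 1 ≠ 0 := by
      intro h
      have h4 : φ x = -1 := eq_neg_of_add_eq_zero_left h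
      have h5 := hinv x hx0
      rw [h4, hneg] at h5
      exact hx1 h5.symm
    have hx10 : x + 1 ≠ 0 := fun h => hx1 (eq_neg_of_add_eq_zero_left h)
    have hz : (e : ZMod p) * x + f = (-1) * (x + 1) := by rw [he, hf]; ring
    rw [(hφ x hx0).1, Tr_some, (hφ _ hy1).1, Aff_some, hz,
      (hφ _ (mul_ne_zero hm1 hx10)).1, Tr_some, hmul _ _ hm1 hx10, hneg] at h2
    have h3 := Option.some.inj h2
    linear_combination h3
  intro x hx
  rw [(hφ x hx).1, phi_eq_inv h0 hmul hinv h1 hneg hE x hx]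

/-- **Part (C) of S0732.** A group of degree `p + 1` and order `(p + 1) p (p - 1)` of the
`ZGood` type is `PGL(2, p)`. -/
theorem zgood_pgl (hH : ZGood p (p - 1) H) :
    Nonempty (H ≃* Matrix.ProjGenLinGroup (Fin 2) (ZMod p)) := by
  classical
  obtain ⟨s, hs, hs0, hs1, hs11⟩ := exists_nswap hH
  have hsinv := swap_inv hH hs hs0 hs1 hs11
  let pt : OnePoint (ZMod p) → Option (ZMod p) := fun x => x
  have hpt : Function.Bijective pt := Function.bijective_id
  have key := Cfsg.Agent.Lib.Helper58.moebius_of_affine_swap (F := ZMod p) (G := H) pt hpt.2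
    (by
      intro g hg
      obtain ⟨k, b, hkb⟩ := hH.affine g.2 hg
      refine ⟨k, b, k.ne_zero, fun x => ?_⟩
      show (g : Perm (Option (ZMod p))) (some x) = some (x * k + b)
      rw [hkb, Aff_some, mul_comm])
    (by
      intro a b ha
      refine ⟨⟨Aff (Units.mk0 a ha) b, Aff_mem_all hH _ _⟩, rfl, fun x => ?_⟩
      show Aff (Units.mk0 a ha) b (some x) = some (x * a + b)
      rw [Aff_some, Units.val_mk0, mul_comm])
    ⟨s, hs⟩ hs0 hs1 (fun x hx => hsinv x hx)
  exact Cfsg.Agent.Lib.Helper58.pgl_equiv_of_moebius H pt hpt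
    (fun g hg => key.1 ⟨g, hg⟩) (fun M => by
      obtain ⟨g, hg⟩ := key.2 M
      exact ⟨g, g.2, hg⟩)

end Cfsg.Agent.Lib.Helper2.ZGPGL
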